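import Cfsg.Agent.H100.D2.Cent
import Cfsg.Agent.H997.Rg.Str
import Cfsg.Agent.Lib.Zsigmondy

/-!
# S3691, residual case F-D+2, `q ≥ 8` even, `m` even (helper100)
-/

set_option autoImplicit false
set_option linter.unusedSectionVars false

namespace Cfsg.Agent.H100.D2

open QuadraticMap Module Cfsg.Agent.H386.Rg Cfsg.Agent.H997.Rg Subgroup

universe u v

variable {F : Type u} {V : Type v} [Field F] [AddCommGroup V] [Module F V] {Q : QuadraticForm F V}

/-! ### The representation of the stabiliser of `v` on `v^⊥ / ⟨v⟩` -/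

/-- `v^⊥` -/
def Pv (Q : QuadraticForm F V) (v : V) : Submodule F V := LinearMap.ker (polarBilin Q v)

theorem mem_Pv {v w : V} : w ∈ Pv Q v ↔ polar Q v w = 0 := Iff.rfl

/-- `⟨v⟩` in `v^⊥` -/
def Nv (Q : QuadraticForm F V) (v : V) : Submodule F (Pv Q v) := (Submodule.span F {v}).comap (Pv Q v).subtype

theorem mem_Nv {v : V} {w : Pv Q v} : w ∈ Nv Q v ↔ (w : V) ∈ Submodule.span F {v} := Iff.rfl

variable {K : Subgroup (V ≃ₗ[F] V)} {v : V}

theorem stb_map (iso : ∀ k ∈ K, ∀ w, Q (k w) = Q w) {k : V ≃ₗ[F] V} (hk : k ∈ stb K v) :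
    ∀ w ∈ Pv Q v, (k : V →ₗ[F] V) w ∈ Pv Q v := by
  intro w hw
  rw [mem_Pv] at hw ⊢
  have h1 := polar_iso (iso k hk.1) v w
  rw [hk.2] at h1
  exact h1.trans hw

theorem stb_map' (iso : ∀ k ∈ K, ∀ w, Q (k w) = Q w) {k : V ≃ₗ[F] V} (hk : k ∈ stb K v) :
    Nv Q v ≤ (Nv Q v).comap ((k : V →ₗ[F] V).restrict (stb_map iso hk)) := by
  intro w hw
  obtain ⟨c, hc⟩ := Submodule.mem_span_singleton.1 (mem_Nv.1 hw)
  rw [Submodule.mem_comap, mem_Nv]
  change k (w : V) ∈ _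
  rw [← hc, map_smul, hk.2]
  exact Submodule.smul_mem _ _ (Submodule.mem_span_singleton_self v)

/-- the representation -/
def repW (iso : ∀ k ∈ K, ∀ w, Q (k w) = Q w) (v : V) : ↥(stb K v) →* Module.End F (Pv Q v ⧸ Nv Q v) where
  toFun k := Submodule.mapQ _ _ _ (stb_map' iso k.2)
  map_one' := by
    apply LinearMap.ext
    intro x
    obtain ⟨x, rfl⟩ := Submodule.mkQ_surjective _ x
    rfl
  map_mul' a b := by
    apply LinearMap.ext
    intro x
    obtain ⟨x, rfl⟩ := Submodule.mkQ_surjective _ x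
    rfl

theorem repW_mk (iso : ∀ k ∈ K, ∀ w, Q (k w) = Q w) (k : ↥(stb K v)) (w : Pv Q v) :
    repW iso v k (Submodule.Quotient.mk w) =
      Submodule.Quotient.mk (⟨(k : V ≃ₗ[F] V) w, stb_map iso k.2 w w.2⟩ : Pv Q v) := rfl

/-- the representation is fixed point free -/
theorem repW_fpf (h2 : (2 : F) = 0) (iso : ∀ k ∈ K, ∀ w, Q (k w) = Q w) (hv : Q v ≠ 0)
    (V2 : ∀ k ∈ stb K v, (orderOf k).Prime → orderOf k ≠ 2 → ∃ e g : V, Q e = 0 ∧ Q g = 0 ∧ polar Q e g = 1 ∧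
      v ∈ Submodule.span F {e, g} ∧ ∀ w : V, k w = w ↔ w ∈ Submodule.span F {e, g}) : Fpf 2 (repW iso v) := by
  intro k hk hk2 x hx
  obtain ⟨w, rfl⟩ := Submodule.Quotient.mk_surjective _ x
  rw [repW_mk, Submodule.Quotient.eq, mem_Nv] at hx
  obtain ⟨c, hc⟩ := Submodule.mem_span_singleton.1 hx
  change c • v = (k : V ≃ₗ[F] V) w - w at hc
  have hko : orderOf (k : V ≃ₗ[F] V) = orderOf k := Subgroup.orderOf_coe k
  have h1 : c • v = 0 := by
    refine shift_zero h2 (hk.odd_of_ne_two hk2) (y := (k : V ≃ₗ[F] V)) ?_ (x := (w : V)) ?_ ?_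
    · rw [← hko]; exact pow_orderOf_eq_one _
    · rw [hc]; abel
    · rw [map_smul, k.2.2]
  rw [h1] at hc
  have h3 : (k : V ≃ₗ[F] V) w = w := (sub_eq_zero.1 hc.symm)
  obtain ⟨e, g, hee, hgg, heg, hve, hfix⟩ := V2 k k.2 (by rw [hko]; exact hk) (by rw [hko]; exact hk2)
  have h4 := mem_span_of_perp h2 hee hgg heg hv hve ((hfix _).1 h3) (mem_Pv.1 w.2)
  rw [Submodule.Quotient.mk_eq_zero, mem_Nv]
  exact h4

theorem finrank_W_le [FiniteDimensional F V] : finrank F (Pv Q v ⧸ Nv Q v) ≤ finrank F V :=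
  (Submodule.finrank_quotient_le _).trans (Submodule.finrank_le _)

theorem nontrivial_W [FiniteDimensional F V] (h3 : 3 ≤ finrank F V) : Nontrivial (Pv Q v ⧸ Nv Q v) := by
  rw [Submodule.Quotient.nontrivial_iff]
  intro htop
  have h1 : finrank F (Pv Q v) ≤ 1 := by
    have h4 : Pv Q v ≤ Submodule.span F {v} := by
      intro w hw
      have : (⟨w, hw⟩ : Pv Q v) ∈ Nv Q v := by rw [htop]; trivial
      exact this
    refine (Submodule.finrank_mono h4).trans ?_
    have := finrank_span_le_card (R := F) ({v} : Set V)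
    simpa using this
  have h5 := LinearMap.finrank_range_add_finrank_ker (polarBilin Q v)
  have h6 : finrank F (LinearMap.range (polarBilin Q v)) ≤ 1 := by
    have := Submodule.finrank_le (LinearMap.range (polarBilin Q v))
    rwa [finrank_self] at this
  have h7 : finrank F (LinearMap.ker (polarBilin Q v)) = finrank F (Pv Q v) := rfl
  omega

/-! ### Numbers -/

theorem sq_le_pow (j : ℕ) : j ^ 2 ≤ 2 ^ (j + 1) := by
  induction j with
  | zero => norm_num
  | succ n ih =>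
    rcases Nat.lt_or_ge n 3 with h | h
    · interval_cases n <;> norm_num
    · rw [pow_succ 2 (n + 1)]
      nlinarith

theorem num_a {j : ℕ} (hj : 2 ≤ j) : 8 * j ^ 2 * (4 ^ j + 1) < 2 ^ (5 * j) := by
  rcases eq_or_lt_of_le hj with rfl | h3
  · norm_num
  have h1 := sq_le_pow j
  have h32 : (2 : ℕ) ^ (5 * j) = 2 ^ j * 16 ^ j := by
    rw [show (16 : ℕ) = 2 ^ 4 by norm_num, ← pow_mul, ← pow_add]; congr 1; ring
  have h2 : 16 * (4 ^ j + 1) < 16 ^ j := by
    have h4 : (16 : ℕ) ^ j = 4 ^ j * 4 ^ j := by rw [← mul_pow]; norm_num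
    have h5 : 64 ≤ 4 ^ j := by
      calc 64 = 4 ^ 3 := by norm_num
        _ ≤ 4 ^ j := Nat.pow_le_pow_right (by norm_num) h3
    rw [h4]; nlinarith
  rw [h32]
  calc 8 * j ^ 2 * (4 ^ j + 1) ≤ 8 * 2 ^ (j + 1) * (4 ^ j + 1) := Nat.mul_le_mul_right _ (Nat.mul_le_mul_left _ h1)
    _ = 2 ^ j * (16 * (4 ^ j + 1)) := by rw [pow_succ]; ring
    _ < 2 ^ j * 16 ^ j := Nat.mul_lt_mul_of_pos_left h2 (by positivity)

theorem num_c {i : ℕ} (hi : 1 ≤ i) : 16 * i * (16 ^ i + 1) < 2 ^ (10 * i) := by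
  have h1 : i < 2 ^ i := Nat.lt_two_pow_self
  have h32 : (2 : ℕ) ^ (10 * i) = 2 ^ i * (32 ^ i * 16 ^ i) := by
    rw [show (16 : ℕ) = 2 ^ 4 by norm_num, show (32 : ℕ) = 2 ^ 5 by norm_num, ← pow_mul, ← pow_mul, ← pow_add, ← pow_add]; congr 1; ring
  have h2 : 16 * (16 ^ i + 1) ≤ 32 ^ i * 16 ^ i := by
    have h5 : 32 ≤ 32 ^ i := by
      calc 32 = 32 ^ 1 := by norm_num
        _ ≤ 32 ^ i := Nat.pow_le_pow_right (by norm_num) hi
    have h6 : 1 ≤ 16 ^ i := Nat.one_le_pow _ _ (by norm_num)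
    nlinarith
  rw [h32]
  calc 16 * i * (16 ^ i + 1) = i * (16 * (16 ^ i + 1)) := by ring
    _ < 2 ^ i * (16 * (16 ^ i + 1)) := Nat.mul_lt_mul_of_pos_right h1 (by positivity)
    _ ≤ 2 ^ i * (32 ^ i * 16 ^ i) := Nat.mul_le_mul_left _ h2

theorem num_b {f c : ℕ} (hf : 3 ≤ f) (hc : 5 ≤ c) : 16 * f * (2 ^ f + 1) * (2 * c + 3) < 2 ^ (f * c) := by
  obtain ⟨a, rfl⟩ := Nat.exists_eq_add_of_le hf
  obtain ⟨d, rfl⟩ := Nat.exists_eq_add_of_le hc
  have h1 : 3 + a ≤ 3 * 2 ^ a := by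
    have : a < 2 ^ a := Nat.lt_two_pow_self
    omega
  have h2 : 96 * (2 * d + 13) < 8 ^ (d + 4) := by
    induction d with
    | zero => norm_num
    | succ d ih =>
      have ih' := ih (by omega)
      rw [show d + 1 + 4 = (d + 4) + 1 by ring, pow_succ]
      omega
  have h3 : 2 ^ (3 + a) + 1 ≤ 2 * 2 ^ (3 + a) := by
    have : 1 ≤ 2 ^ (3 + a) := Nat.one_le_two_pow
    omega
  have h4 : (2 : ℕ) ^ ((3 + a) * (5 + d)) = 2 ^ (3 + a) * (8 ^ (d + 4) * 2 ^ (a * (d + 4))) := by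
    rw [show (8 : ℕ) = 2 ^ 3 by norm_num, ← pow_mul, ← pow_add, ← pow_add]; congr 1; ring
  have h5 : 2 ^ a ≤ 2 ^ (a * (d + 4)) := Nat.pow_le_pow_right two_pos (by nlinarith)
  rw [h4]
  calc 16 * (3 + a) * (2 ^ (3 + a) + 1) * (2 * (5 + d) + 3)
      ≤ 16 * (3 * 2 ^ a) * (2 * 2 ^ (3 + a)) * (2 * (5 + d) + 3) :=
        Nat.mul_le_mul_right _ (Nat.mul_le_mul (Nat.mul_le_mul_left _ h1) h3)
    _ = 2 ^ (3 + a) * ((96 * (2 * d + 13)) * 2 ^ a) := by ring
    _ < 2 ^ (3 + a) * (8 ^ (d + 4) * 2 ^ a) :=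
        Nat.mul_lt_mul_of_pos_left (Nat.mul_lt_mul_of_pos_right h2 (by positivity)) (by positivity)
    _ ≤ 2 ^ (3 + a) * (8 ^ (d + 4) * 2 ^ (a * (d + 4))) := Nat.mul_le_mul_left _ (Nat.mul_le_mul_left _ h5)


theorem fac_two_pow_mul {a n : ℕ} (hn : ¬ 2 ∣ n) : (2 ^ a * n).factorization 2 = a := by
  have hn0 : n ≠ 0 := by rintro rfl; exact hn (dvd_zero _)
  rw [Nat.factorization_mul (by positivity) hn0, Finsupp.add_apply, Nat.factorization_pow, Finsupp.smul_apply,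
    Nat.prime_two.factorization_self, Nat.factorization_eq_zero_of_not_dvd hn, smul_eq_mul, mul_one, add_zero]

theorem odd_two_pow_sub {b : ℕ} (hb : b ≠ 0) : ¬ 2 ∣ 2 ^ b - 1 := by
  intro h
  have h1 : 2 ∣ 2 ^ b := dvd_pow_self 2 hb
  have h2 : 1 ≤ 2 ^ b := Nat.one_le_two_pow
  omega

/-- **the shapes of the component are impossible** -/
theorem shape_false (hJ : OutJ1.{v}) {S : Type v} [Group S] [Finite S] [IsSimpleGroup S]
    (hnc : ∃ a b : S, a * b ≠ b * a) (hS : Shape 2 S) {r f m N : ℕ} (hr : r.Prime) (hr2 : r ≠ 2) (hf : 3 ≤ f)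
    (hm : 6 ≤ m) (hme : Even m) (hord : orderOf ((2 : ℕ) : ZMod r) = f * (m - 1)) (hrS : r ∣ Nat.card S)
    (hSN : Nat.card S ∣ N) (hN : N ∣ 2 ^ (f * (m - 1)) * (2 ^ (f * (m - 1)) - 1))
    (hv : N.factorization 2 ≤ (Nat.card (MulAut S)).factorization 2)
    (hlow : 2 ^ (f * (m - 1)) ≤ 4 * f * (2 ^ f + 1) * 2 ^ N.factorization 2)
    (hl : ∀ (F' : Type) [Field F'] [Fintype F'], (Fintype.card F').Prime → Fintype.card F' ≠ 2 →
      Nonempty (S ≃* Matrix.ProjectiveSpecialLinearGroup (Fin 2) F') → Fintype.card F' ≤ 4 * m + 1) : False := by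
  have hZ := center_bot hnc
  have hN0 : N ≠ 0 := by
    rintro rfl
    have h1 := zero_dvd_iff.1 hN
    have h2 : 0 < 2 ^ (f * (m - 1)) - 1 := by
      have : 1 < 2 ^ (f * (m - 1)) := Nat.one_lt_two_pow (by have := Nat.mul_pos (show 0 < f by omega) (show 0 < m - 1 by omega); omega)
      omega
    have h3 : 0 < 2 ^ (f * (m - 1)) := by positivity
    have := Nat.mul_pos h3 h2
    omega
  set k := f * (m - 1) with hk
  obtain ⟨c, hc⟩ : ∃ c, m = c + 1 := ⟨m - 1, by omega⟩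
  have hc5 : 5 ≤ c := by omega
  have hkc : k = f * c := by rw [hk, hc, Nat.add_sub_cancel]
  have hco : Odd c := by
    obtain ⟨j, hj⟩ := hme
    exact ⟨j - 1, by omega⟩
  have hk0 : k ≠ 0 := by rw [hkc]; positivity
  have hr_dvd : ∀ n : ℕ, r ∣ 2 ^ n - 1 → k ∣ n := by
    intro n hn
    rw [← hord]
    apply orderOf_dvd_of_pow_eq_one
    have h2 := (Nat.modEq_iff_dvd' (Nat.one_le_two_pow (n := n))).2 hn
    have h3 := (ZMod.natCast_eq_natCast_iff _ _ _).2 h2
    push_cast at h3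
    push_cast
    exact h3.symm
  have hodd_dvd : ∀ n : ℕ, Nat.Coprime 2 n → n ∣ Nat.card S → n ∣ 2 ^ k - 1 := by
    intro n hn hd
    exact Nat.Coprime.dvd_of_dvd_mul_left (Nat.Coprime.pow_left k hn).symm ((hd.trans hSN).trans hN)
  have hb := num_b hf hc5
  rw [← hkc] at hb
  have hmc : 2 * c + 3 = 2 * m + 1 := by omega
  rw [hmc] at hb
  have hsmall : ∀ B : ℕ, 2 ^ N.factorization 2 ≤ B → B ≤ 4 * (2 * m + 1) → False := by
    intro B h1 h2
    have h3 : 4 * f * (2 ^ f + 1) * 2 ^ N.factorization 2 ≤ 4 * f * (2 ^ f + 1) * (4 * (2 * m + 1)) :=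
      Nat.mul_le_mul_left _ (h1.trans h2)
    have h4 : 4 * f * (2 ^ f + 1) * (4 * (2 * m + 1)) = 16 * f * (2 ^ f + 1) * (2 * m + 1) := by ring
    omega
  rcases hS with h | h | h | h | h
  · -- L₂(2^b)
    obtain ⟨F', iF, iF', b, hF', h4, ⟨e⟩⟩ := h
    obtain ⟨h5, h6, _⟩ := psl2_data hZ Nat.prime_two hF' h4 e
    have hb0 : b ≠ 0 := by rintro rfl; rw [pow_zero] at h4; omega
    have hg : Nat.gcd 2 (2 ^ b - 1) = 1 := (Nat.Prime.coprime_iff_not_dvd Nat.prime_two).2 (odd_two_pow_sub hb0)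
    rw [hg, mul_one] at h6
    rw [← pow_mul] at h5 h6
    have hcop : Nat.Coprime 2 (2 ^ (b * 2) - 1) :=
      (Nat.Prime.coprime_iff_not_dvd Nat.prime_two).2 (odd_two_pow_sub (by omega))
    have h7 : k ∣ b * 2 := by
      apply hr_dvd
      rw [h6] at hrS
      refine ((Nat.Prime.dvd_mul hr).1 hrS).resolve_left fun h8 => hr2 ?_
      exact (Nat.prime_dvd_prime_iff_eq hr Nat.prime_two).1 (hr.dvd_of_dvd_pow h8)
    have h8 : 2 ^ (b * 2) - 1 ∣ 2 ^ k - 1 := hodd_dvd _ hcop (by rw [h6]; exact dvd_mul_left _ _)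
    have h9 : b * 2 = k := by
      apply le_antisymm _ (Nat.le_of_dvd (by omega) h7)
      have h10 : 1 < 2 ^ k := Nat.one_lt_two_pow hk0
      have h11 := Nat.le_of_dvd (by omega) h8
      have h12 : 2 ^ (b * 2) ≤ 2 ^ k := by
        have : 1 ≤ 2 ^ (b * 2) := Nat.one_le_two_pow
        omega
      exact (Nat.pow_le_pow_iff_right (by norm_num)).1 h12
    have h2f : 2 ∣ f := by
      have h10 : 2 ∣ f * c := by rw [← hkc, ← h9]; exact dvd_mul_left _ _
      have h11 : Nat.Coprime 2 c := hco.coprime_two_left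
      exact h11.dvd_of_dvd_mul_right h10
    obtain ⟨j, rfl⟩ := h2f
    have hj2 : 2 ≤ j := by omega
    have hbj : b = j * c := by
      have : b * 2 = j * c * 2 := by rw [h9, hkc]; ring
      omega
    have hc2 : ¬ 2 ∣ c := by
      rw [← even_iff_two_dvd, Nat.not_even_iff_odd]; exact hco
    have hfb : b.factorization 2 = j.factorization 2 := by
      rw [hbj, Nat.factorization_mul (by omega) (by omega), Finsupp.add_apply, Nat.factorization_eq_zero_of_not_dvd hc2, add_zero]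
    have hfj : 2 ^ j.factorization 2 ≤ j := Nat.le_of_dvd (by omega) (Nat.ordProj_dvd j 2)
    have h13 : (Nat.card (MulAut S)).factorization 2 = j.factorization 2 + b := by
      rw [h5, Nat.factorization_mul hb0 (mul_ne_zero (by positivity) (by
        have := odd_two_pow_sub (b := b * 2) (by omega)
        intro h0; rw [h0] at this; exact this (dvd_zero _))), Finsupp.add_apply,
        fac_two_pow_mul (odd_two_pow_sub (by omega)), hfb]
    have h14 : 2 ^ N.factorization 2 ≤ j * 2 ^ b := by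
      calc 2 ^ N.factorization 2 ≤ 2 ^ (j.factorization 2 + b) := Nat.pow_le_pow_right two_pos (by omega)
        _ = 2 ^ j.factorization 2 * 2 ^ b := pow_add _ _ _
        _ ≤ j * 2 ^ b := Nat.mul_le_mul_right _ hfj
    have h15 : 2 ^ b * 2 ^ b ≤ 2 ^ b * (8 * j ^ 2 * (4 ^ j + 1)) := by
      calc 2 ^ b * 2 ^ b = 2 ^ k := by rw [← h9, ← pow_add]; congr 1; ring
        _ ≤ 4 * (2 * j) * (2 ^ (2 * j) + 1) * 2 ^ N.factorization 2 := hlow
        _ ≤ 4 * (2 * j) * (2 ^ (2 * j) + 1) * (j * 2 ^ b) := Nat.mul_le_mul_left _ h14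
        _ = 2 ^ b * (8 * j ^ 2 * (4 ^ j + 1)) := by rw [pow_mul 2 2 j]; ring
    have h16 := Nat.le_of_mul_le_mul_left h15 (by positivity)
    have h17 := num_a hj2
    have h18 : 2 ^ (5 * j) ≤ 2 ^ b := Nat.pow_le_pow_right two_pos (by rw [hbj, mul_comm]; exact Nat.mul_le_mul_left _ hc5)
    omega
  · -- L₂(l)
    obtain ⟨F', iF, iF', hpr, hne, h5, ⟨e⟩⟩ := h
    obtain ⟨h6, _, _⟩ := psl2_data hZ (l := Fintype.card F') (b := 1) hpr (by rw [pow_one]) (by rw [pow_one]; omega) e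
    rw [pow_one, one_mul] at h6
    have h7 := hl F' hpr hne ⟨e⟩
    set l := Fintype.card F' with hl'
    have h8 : l ^ 2 - 1 = (l - 1) * (l + 1) := by
      have := Nat.sq_sub_sq l 1
      rw [one_pow] at this
      rw [this, mul_comm]
    obtain ⟨x, x', hxy, hx2, hx'⟩ := prod_bound (p := 2) Nat.prime_two (l := l) (by omega)
    have hll : l.factorization 2 = 0 := by
      apply Nat.factorization_eq_zero_of_not_dvd
      intro h
      exact hne ((Nat.prime_dvd_prime_iff_eq Nat.prime_two hpr).1 h).symm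
    have h9 : (Nat.card (MulAut S)).factorization 2 = x + x' := by
      rw [h6, h8, Nat.factorization_mul (by omega) (mul_ne_zero (by omega) (by omega)), Finsupp.add_apply, hxy, hll, zero_add]
    refine hsmall (2 * (l + 1)) ?_ (by omega)
    calc 2 ^ N.factorization 2 ≤ 2 ^ (x + x') := Nat.pow_le_pow_right two_pos (by omega)
      _ = 2 ^ x * 2 ^ x' := pow_add _ _ _
      _ ≤ 2 * (l + 1) := Nat.mul_le_mul (Nat.le_of_dvd two_pos hx2) hx'
  · -- Suzuki
    obtain ⟨_, h⟩ := h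
    obtain ⟨b, hbo, hb3, hcs, ho⟩ := suz_data hZ h
    have hodd1 : ¬ 2 ∣ ((2 ^ b) ^ 2 + 1) * (2 ^ b - 1) := by
      intro h2
      have he : 2 ∣ 2 ^ b := dvd_pow_self 2 (by omega)
      have h1 : 1 ≤ 2 ^ b := Nat.one_le_two_pow
      rcases (Nat.Prime.dvd_mul Nat.prime_two).1 h2 with h3 | h3
      · have h4 : 2 ∣ (2 ^ b) ^ 2 := dvd_pow he two_ne_zero
        omega
      · omega
    have h1 : Nat.card S = 2 ^ (b * 2) * (((2 ^ b) ^ 2 + 1) * (2 ^ b - 1)) := by
      rw [hcs, pow_mul]; ring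
    have hb2 : ¬ 2 ∣ b := by rw [← even_iff_two_dvd, Nat.not_even_iff_odd]; exact hbo
    have h2 : (Nat.card (MulAut S)).factorization 2 = b * 2 := by
      rw [card_mulAut hZ, ho, h1, mul_assoc]
      apply fac_two_pow_mul
      intro h2
      rcases (Nat.Prime.dvd_mul Nat.prime_two).1 h2 with h3 | h3
      · exact hodd1 h3
      · exact hb2 h3
    have h3 : r ∣ ((2 ^ b) ^ 2 + 1) * (2 ^ b - 1) := by
      rw [h1] at hrS
      refine ((Nat.Prime.dvd_mul hr).1 hrS).resolve_left fun h8 => hr2 ?_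
      exact (Nat.prime_dvd_prime_iff_eq hr Nat.prime_two).1 (hr.dvd_of_dvd_pow h8)
    have h4 : ((2 ^ b) ^ 2 + 1) * (2 ^ b - 1) ∣ 2 ^ (4 * b) - 1 := by
      obtain ⟨z, hz⟩ : ∃ z, 2 ^ b = z + 1 := ⟨2 ^ b - 1, by have : 1 ≤ 2 ^ b := Nat.one_le_two_pow; omega⟩
      refine ⟨z + 2, ?_⟩
      rw [mul_comm 4 b, pow_mul, hz, Nat.add_sub_cancel]
      apply Nat.sub_eq_of_eq_add
      ring
    have h5 : k ∣ 4 * b := hr_dvd _ (h3.trans h4)
    have h6 : ((2 ^ b) ^ 2 + 1) * (2 ^ b - 1) ∣ 2 ^ k - 1 :=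
      hodd_dvd _ ((Nat.Prime.coprime_iff_not_dvd Nat.prime_two).2 hodd1) (by rw [h1]; exact dvd_mul_left _ _)
    have h7 : k = 4 * b := by
      obtain ⟨w, hw⟩ := h5
      have h10 : 1 < 2 ^ k := Nat.one_lt_two_pow hk0
      have h11 := Nat.le_of_dvd (by omega) h6
      have h12 : 2 ^ (2 * b) < 2 ^ k := by
        have h13 : 2 ^ (2 * b) = (2 ^ b) ^ 2 := by rw [mul_comm, pow_mul]
        have h14 : 2 ≤ 2 ^ b := by
          calc 2 = 2 ^ 1 := rfl
            _ ≤ 2 ^ b := Nat.pow_le_pow_right two_pos (by omega)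
        have h15 : ((2 ^ b) ^ 2 + 1) * 1 ≤ ((2 ^ b) ^ 2 + 1) * (2 ^ b - 1) := Nat.mul_le_mul_left _ (by omega)
        omega
      have h13 : 2 * b < k := (Nat.pow_lt_pow_iff_right (by norm_num)).1 h12
      rcases w with _ | _ | w
      · omega
      · omega
      · exfalso
        have : k * (w + 1 + 1) = k * w + 2 * k := by ring
        omega
    have h8 : 4 ∣ f := by
      have h10 : 4 ∣ f * c := by rw [← hkc, h7]; exact dvd_mul_right _ _
      have h11 : Nat.Coprime 4 c := by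
        have := Nat.Coprime.pow_left 2 (hco.coprime_two_left)
        norm_num at this
        exact this
      exact h11.dvd_of_dvd_mul_right h10
    obtain ⟨i, rfl⟩ := h8
    have hi : 1 ≤ i := by omega
    have hbi : b = i * c := by
      have : 4 * b = 4 * (i * c) := by rw [← h7, hkc]; ring
      omega
    have h9 : 2 ^ (b * 2) * 2 ^ (b * 2) ≤ 2 ^ (b * 2) * (16 * i * (16 ^ i + 1)) := by
      calc 2 ^ (b * 2) * 2 ^ (b * 2) = 2 ^ k := by rw [h7, ← pow_add]; congr 1; ring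
        _ ≤ 4 * (4 * i) * (2 ^ (4 * i) + 1) * 2 ^ N.factorization 2 := hlow
        _ ≤ 4 * (4 * i) * (2 ^ (4 * i) + 1) * 2 ^ (b * 2) :=
          Nat.mul_le_mul_left _ (Nat.pow_le_pow_right two_pos (by omega))
        _ = 2 ^ (b * 2) * (16 * i * (16 ^ i + 1)) := by rw [pow_mul 2 4 i]; ring
    have h10 := Nat.le_of_mul_le_mul_left h9 (by positivity)
    have h11 := num_c hi
    have h12 : 2 ^ (10 * i) ≤ 2 ^ (b * 2) := Nat.pow_le_pow_right two_pos (by
      have := Nat.mul_le_mul_left i hc5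
      rw [hbi]; omega)
    omega
  · -- J₁
    obtain ⟨_, h⟩ := h
    have h1 : Nat.card S = 175560 := h.2
    have h2 : Nat.card (MulAut S) = 2 ^ 3 * 21945 := by
      rw [card_mulAut hZ, hJ _ h, h1]; norm_num
    have h3 : (Nat.card (MulAut S)).factorization 2 = 3 := by
      rw [h2]; exact fac_two_pow_mul (by norm_num)
    refine hsmall 8 ?_ (by omega)
    calc 2 ^ N.factorization 2 ≤ 2 ^ 3 := Nat.pow_le_pow_right two_pos (by omega)
      _ = 8 := by norm_num
  · exact h.1 rfl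

/-! ### Fixed points -/

/-- a nontrivial normal `2`-subgroup on which `y` has no fixed points -/
theorem card_two_group {G : Type*} [Group G] [Finite G] {y : G} {r : ℕ} (hr : r.Prime) (hy : orderOf y = r)
    (A : Subgroup G) [A.Normal] (hfix : ∀ a ∈ A, y * a = a * y → a = 1) : Nat.card A ≡ 1 [MOD r] := by
  have := Fact.mk hr
  letI : MulAction (zpowers y) A :=
    { smul := fun g a => ⟨(g : G) * a * (g : G)⁻¹, ‹A.Normal›.conj_mem a a.2 g⟩
      one_smul := fun a => Subtype.ext (by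
        change (1 : G) * a * (1 : G)⁻¹ = a
        rw [one_mul, inv_one, mul_one])
      mul_smul := fun g h a => Subtype.ext (by
        change ((g : G) * h) * a * ((g : G) * h)⁻¹ = g * (h * a * (h : G)⁻¹) * (g : G)⁻¹
        group) }
  have hp : IsPGroup r (zpowers y) := by
    apply IsPGroup.of_card (n := 1)
    rw [Nat.card_zpowers, hy, pow_one]
  have h1 := hp.card_modEq_card_fixedPoints A
  have h2 : Nat.card (MulAction.fixedPoints (zpowers y) A) = 1 := by
    rw [Nat.card_eq_one_iff_unique]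
    constructor
    · constructor
      rintro ⟨a, ha⟩ ⟨b, hb⟩
      have key : ∀ c : A, c ∈ MulAction.fixedPoints (zpowers y) A → c = 1 := by
        intro c hc
        have h3 : y * (c : G) * y⁻¹ = c := congrArg Subtype.val (hc ⟨y, mem_zpowers y⟩)
        exact Subtype.ext (hfix c c.2 (mul_inv_eq_iff_eq_mul.1 h3))
      exact Subtype.ext ((key a ha).trans (key b hb).symm)
    · refine ⟨⟨1, fun g => Subtype.ext ?_⟩⟩
      change (g : G) * 1 * (g : G)⁻¹ = 1
      rw [mul_one, mul_inv_cancel]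
  rwa [h2] at h1

theorem cent_odd {G : Type*} [Group G] [Finite G] {y : G} (hC : ∀ t : G, t * t = 1 → t * y = y * t → t = 1) :
    ¬ 2 ∣ Nat.card (centralizer ({y} : Set G)) := by
  intro h
  have := Fact.mk Nat.prime_two
  obtain ⟨t, ht⟩ := exists_prime_orderOf_dvd_card' (G := centralizer ({y} : Set G)) 2 h
  have h1 : t * t = 1 := by rw [← pow_two, ← ht]; exact pow_orderOf_eq_one t
  have h2 := hC t (congrArg Subtype.val h1) (mem_centralizer_singleton_iff.1 t.2)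
  have h3 : t = 1 := Subtype.ext h2
  rw [h3, orderOf_one] at ht
  norm_num at ht

theorem fix_one {G : Type*} [Group G] [Finite G] {y : G} (hC : ∀ t : G, t * t = 1 → t * y = y * t → t = 1)
    {A : Subgroup G} (hA : IsPGroup 2 A) : ∀ a ∈ A, y * a = a * y → a = 1 := by
  intro a ha hya
  have := Fact.mk Nat.prime_two
  obtain ⟨k, hk⟩ := hA ⟨a, ha⟩
  have hk' : a ^ 2 ^ k = 1 := congrArg Subtype.val hk
  have h1 : orderOf a ∣ 2 ^ k := orderOf_dvd_of_pow_eq_one hk'
  have h2 : orderOf a ∣ Nat.card (centralizer ({y} : Set G)) := by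
    have h3 : a ∈ centralizer ({y} : Set G) := mem_centralizer_singleton_iff.2 hya.symm
    rw [← Subgroup.orderOf_mk a h3]
    exact orderOf_dvd_natCard _
  have h3 : Nat.Coprime (2 ^ k) (Nat.card (centralizer ({y} : Set G))) :=
    Nat.Coprime.pow_left _ ((Nat.Prime.coprime_iff_not_dvd Nat.prime_two).2 (cent_odd hC))
  exact orderOf_eq_one_iff.1 (Nat.eq_one_of_dvd_coprimes h3 h1 h2)

/-! ### The theorem -/

variable [Finite F] [FiniteDimensional F V] {p f m : ℕ}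

/-- **11.2 (c)**, from the basic facts V1 - V4 and the common part 11.3 -/
theorem even_even_of (hJ : OutJ1.{v}) (h : D2 Q p f m K) (hp2 : p = 2) (hq : 8 ≤ p ^ f) (hm : Even m)
    (V1 : ∀ {r : ℕ}, r.Prime → orderOf (p : ZMod r) = f * (m - 1) → ∀ {y : V ≃ₗ[F] V}, y ∈ K → orderOf y = r →
      ∃ e g : V, Q e = 0 ∧ Q g = 0 ∧ polar Q e g = 1 ∧ ∀ v : V, y v = v ↔ v ∈ Submodule.span F {e, g})
    (V2 : ∀ {v : V}, Q v ≠ 0 → ∀ {k : V ≃ₗ[F] V}, k ∈ stb K v → (orderOf k).Prime → orderOf k ≠ p → orderOf k ≠ 2 →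
      ∃ e g : V, Q e = 0 ∧ Q g = 0 ∧ polar Q e g = 1 ∧ v ∈ Submodule.span F {e, g} ∧
        ∀ w : V, k w = w ↔ w ∈ Submodule.span F {e, g})
    (V3 : ∀ {v : V}, Q v ≠ 0 → Nat.card (stb K v) ∣ p ^ (f * (m - 1)) * (p ^ (f * (m - 1)) - 1))
    (V4 : ∀ {v : V}, Q v ≠ 0 → p ^ (f * (m - 1)) * (p ^ (f * (m - 1)) - 1) ≤
      2 * (p ^ f + 1) * ((if p = 2 then 2 else 8) * f) * Nat.card (stb K v))
    (common : ∀ (_ : Odd (m - 1)) {r : ℕ} (_ : r.Prime) (_ : orderOf (p : ZMod r) = f * (m - 1))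
      {y : V ≃ₗ[F] V} (_ : orderOf y = r) {v : V} (_ : Q v ≠ 0) (_ : y ∈ stb K v)
      (_ : ∀ x : V, Q x ≠ 0 → 2 ∣ Nat.card (stb K x) → p = 2)
      (A : Subgroup (V ≃ₗ[F] V)) (_ : A ≤ stb K v) (_ : ∀ k ∈ stb K v, ∀ a ∈ A, k * a * k⁻¹ ∈ A)
      (_ : Nat.card A = p ^ (f * (m - 1))), False) : False := by
  subst hp2
  have h2 : (2 : F) = 0 := two_eq_zero h.hF h.hp rfl
  have h5 := h.hm
  have hf3 : 3 ≤ f := by
    by_contra hcon
    have : 2 ^ f ≤ 2 ^ 2 := Nat.pow_le_pow_right two_pos (by omega)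
    omega
  have hm6 : 6 ≤ m := by
    obtain ⟨j, hj⟩ := hm
    omega
  obtain ⟨k, hk⟩ : ∃ k, k = f * (m - 1) := ⟨_, rfl⟩
  have hk15 : 15 ≤ k := by
    rw [hk]
    calc 15 = 3 * 5 := rfl
      _ ≤ f * (m - 1) := Nat.mul_le_mul hf3 (by omega)
  obtain ⟨r, hr, hord⟩ := Cfsg.Agent.Lib.Zsigmondy.exists_prime_orderOf (a := 2) (n := f * (m - 1)) le_rfl
    (by omega) (by omega) (by omega)
  have hrk : k < r := by
    have := Fact.mk hr
    have hne : ((2 : ℕ) : ZMod r) ≠ 0 := by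
      intro h0
      rw [h0, orderOf_eq_zero_iff'.2 (fun n hn => by rw [zero_pow hn.ne']; exact zero_ne_one)] at hord
      omega
    have h6 := ZMod.orderOf_dvd_card_sub_one hne
    rw [hord, ← hk] at h6
    have h7 := hr.two_le
    have := Nat.le_of_dvd (by omega) h6
    omega
  have hr2 : r ≠ 2 := by omega
  have hfV : Finite V := Module.finite_of_finite F
  have hVV : Finite (V ≃ₗ[F] V) :=
    Finite.of_injective (fun f : V ≃ₗ[F] V => (f : V → V)) DFunLike.coe_injective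
  -- the element `y` and the vector `v`
  have := Fact.mk hr
  obtain ⟨⟨y, hyK⟩, hy⟩ := exists_prime_orderOf_dvd_card' (G := K) r (h.rdvd r hr (Or.inr hord))
  rw [Subgroup.orderOf_mk] at hy
  obtain ⟨e, g, hee, hgg, heg, hfix⟩ := V1 hr hord hyK hy
  obtain ⟨v, hv'⟩ : ∃ v, v = e + g := ⟨_, rfl⟩
  have hv : Q v ≠ 0 := by
    have h6 : Q (e + g) = Q e + Q g + polar Q e g := by unfold polar; abel
    rw [hv', h6, hee, hgg, heg, zero_add, zero_add]
    exact one_ne_zero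
  have hyv : y v = v := by
    rw [hfix, hv']
    exact Submodule.add_mem _ (Submodule.subset_span (by simp)) (Submodule.subset_span (by simp))
  have hyS : y ∈ stb K v := ⟨hyK, hyv⟩
  set y1 : ↥(stb K v) := ⟨y, hyS⟩ with hy1
  have hy1r : orderOf y1 = r := by rw [hy1, Subgroup.orderOf_mk, hy]
  -- the representation
  have hch : CharP F 2 := CharTwo.of_one_ne_zero_of_two_eq_zero one_ne_zero h2
  have hnt : Nontrivial (Pv Q v ⧸ Nv Q v) := nontrivial_W (by rw [h.dim]; omega)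
  have hfp : Fpf 2 (repW h.iso v) := repW_fpf h2 h.iso hv fun k hk hkp hk2 => V2 hv hk hkp hk2 hk2
  have hdW : finrank F (Pv Q v ⧸ Nv Q v) ≤ 2 * m := by rw [← h.dim]; exact finrank_W_le
  have hK : Cyc 2 ↥(stb K v) := ⟨fun s hs hs2 hsp P => hfp.cyc Nat.prime_two hs hs2 hsp P, Or.inl rfl⟩
  have hC : ∀ t : ↥(stb K v), t * t = 1 → t * y1 = y1 * t → t = 1 := by
    intro t ht hty
    exact Subtype.ext (invol_comm h rfl hm hr hr2 hord hyK hy hee hgg heg hfix hv hyv t.2.1 t.2.2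
      (congrArg Subtype.val ht) (congrArg Subtype.val hty))
  -- the orders
  have h3 := V3 hv
  have h4 := V4 hv
  rw [if_pos rfl] at h4
  have hk1 : 1 < 2 ^ k := Nat.one_lt_two_pow (by omega)
  set N := Nat.card ↥(stb K v) with hN
  have hN0 : N ≠ 0 := Nat.card_pos.ne'
  have hvk : N.factorization 2 ≤ k := by
    have h6 := fac_le (p := 2) h3 (mul_ne_zero (by positivity) (by rw [← hk]; omega))
    rw [← hk, fac_two_pow_mul (odd_two_pow_sub (by omega))] at h6
    exact h6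
  have hlow : 2 ^ (f * (m - 1)) ≤ 4 * f * (2 ^ f + 1) * 2 ^ N.factorization 2 := by
    have h6 : N / 2 ^ N.factorization 2 ∣ 2 ^ k - 1 := by
      have h7 : Nat.Coprime 2 (N / 2 ^ N.factorization 2) := Nat.coprime_ordCompl Nat.prime_two hN0
      have h8 : N / 2 ^ N.factorization 2 ∣ N := Nat.ordCompl_dvd N 2
      rw [← hk] at h3
      exact Nat.Coprime.dvd_of_dvd_mul_left (Nat.Coprime.pow_left k h7).symm (h8.trans h3)
    have h7 := Nat.le_of_dvd (by omega) h6
    have h8 : 2 ^ N.factorization 2 * (N / 2 ^ N.factorization 2) = N := Nat.ordProj_mul_ordCompl_eq_self N 2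
    rw [← hk] at h4 ⊢
    have h9 : (2 ^ k - 1) * 2 ^ k ≤ (2 ^ k - 1) * (4 * f * (2 ^ f + 1) * 2 ^ N.factorization 2) := by
      calc (2 ^ k - 1) * 2 ^ k = 2 ^ k * (2 ^ k - 1) := mul_comm _ _
        _ ≤ 2 * (2 ^ f + 1) * (2 * f) * N := h4
        _ = 2 * (2 ^ f + 1) * (2 * f) * (2 ^ N.factorization 2 * (N / 2 ^ N.factorization 2)) := by rw [h8]
        _ ≤ 2 * (2 ^ f + 1) * (2 * f) * (2 ^ N.factorization 2 * (2 ^ k - 1)) :=
          Nat.mul_le_mul_left _ (Nat.mul_le_mul_left _ h7)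
        _ = _ := by ring
    exact Nat.le_of_mul_le_mul_left h9 (by omega)
  -- the bound on the normalizers
  have hnc : ∀ u : ↥(stb K v), (orderOf u).Prime → orderOf u ≠ 2 → nc u ≤ 2 * m := by
    intro u hu hu2
    obtain ⟨m0, hm0, _, hm1⟩ := hfp.card_normalizer hu hu2 rfl
    rw [card_nc] at hm1
    have := Nat.eq_of_mul_eq_mul_left Nat.card_pos hm1
    omega
  have hA2 : IsPGroup 2 (pCore 2 ↥(stb K v)) := Cfsg.Agent.Lib.Cores.pCore_isPGroup 2
  by_cases hA : pCore 2 ↥(stb K v) = ⊥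
  · -- `O₂(K₁) = 1`
    have hF := hfp.fit Nat.prime_two hr (by omega) hr2 hy1r (fun a ha => by
      rw [hA, Subgroup.mem_bot] at ha
      rw [ha]
      exact Commute.one_right _)
    have hfac : N.factorization 2 < r := by omega
    rcases coreS Nat.prime_two hr hr2 hr2 hK y1 hy1r hF (hout_of hJ Nat.prime_two hr hr2 hK hfac) with hn |
      ⟨L, hL, hLn, hyL, hyC, hS, hd1, hd2⟩
    · obtain ⟨m0, hm0, hm00, hm1⟩ := hfp.card_normalizer hr hr2 hy1r
      rw [Subgroup.normalizer_eq_top_iff.2 hn, Subgroup.card_top, ← hN] at hm1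
      have h6 : N.factorization 2 = m0.factorization 2 := by
        rw [hm1, Nat.factorization_mul Nat.card_pos.ne' hm00, Finsupp.add_apply,
          Nat.factorization_eq_zero_of_not_dvd (cent_odd hC), zero_add]
      have h7 : 2 ^ N.factorization 2 ≤ 2 * m := by
        rw [h6]
        exact (Nat.le_of_dvd (Nat.pos_of_ne_zero hm00) (Nat.ordProj_dvd m0 2)).trans (hm0.trans hdW)
      have h8 := num_b hf3 (show 5 ≤ m - 1 by omega)
      have h9 : 4 * f * (2 ^ f + 1) * 2 ^ N.factorization 2 ≤ 4 * f * (2 ^ f + 1) * (4 * (2 * (m - 1) + 3)) :=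
        Nat.mul_le_mul_left _ (by omega)
      have h10 : 4 * f * (2 ^ f + 1) * (4 * (2 * (m - 1) + 3)) = 16 * f * (2 ^ f + 1) * (2 * (m - 1) + 3) := by ring
      omega
    · have hsimple : IsSimpleGroup (↥L ⧸ center ↥L) := hL.2.2
      have hnc' := not_comm_of (quasisimple_quot_not_solvable hL.2)
      have hrS := dvd_card_quot hr hy1r hyL hyC
      refine shape_false hJ hnc' hS hr hr2 hf3 hm6 hm hord hrS ((dvd_mul_right _ _).trans hd2) h3 ?_ hlow ?_
      · have h6 := fac_le (p := 2) hd1 (mul_ne_zero Nat.card_pos.ne' Nat.card_pos.ne')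
        have h7 : (Nat.card (centralizer (L : Set ↥(stb K v)))).factorization 2 = 0 := by
          apply Nat.factorization_eq_zero_of_not_dvd
          intro h8
          apply cent_odd hC
          refine h8.trans (Subgroup.card_dvd_of_le ?_)
          intro c hc
          rw [mem_centralizer_singleton_iff]
          exact (mem_centralizer_iff.1 hc y1 hyL).symm
        rw [Nat.factorization_mul Nat.card_pos.ne' Nat.card_pos.ne', Finsupp.add_apply, h7, zero_add] at h6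
        exact h6
      · intro F' _ _ hpr hne ⟨e'⟩
        obtain ⟨u, w, i, hu, huv, hi⟩ := exists_split hpr (cyc_sub hpr (hK.cyc _ hpr hne hne) L) rfl e'
        have hu' : orderOf (u : ↥(stb K v)) = Fintype.card F' := by rw [Subgroup.orderOf_coe]; exact hu
        have h7 : (w : ↥(stb K v)) * u * (w : ↥(stb K v))⁻¹ = (u : ↥(stb K v)) ^ i := congrArg Subtype.val huv
        have h8 := Nat.le_of_dvd (nc_pos _) (dvd_nc hu' h7)
        have h9 := hnc (u : ↥(stb K v)) (by rw [hu']; exact hpr) (by rw [hu']; exact hne)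
        omega
  · -- `A = O₂(K₁) ≠ 1`
    have h6 := card_two_group hr hy1r (pCore 2 ↥(stb K v)) (fix_one hC hA2)
    obtain ⟨a, ha⟩ := IsPGroup.iff_card.1 hA2
    have ha0 : a ≠ 0 := by
      rintro rfl
      rw [pow_zero] at ha
      exact hA ((Subgroup.card_eq_one).1 ha)
    have hka : k ∣ a := by
      rw [hk, ← hord]
      apply orderOf_dvd_of_pow_eq_one
      rw [ha] at h6
      have := (ZMod.natCast_eq_natCast_iff _ _ _).2 h6
      push_cast at this
      push_cast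
      exact this
    have hak : a ≤ k := by
      have h7 : 2 ^ a ∣ N := by rw [← ha]; exact Subgroup.card_subgroup_dvd_card _
      exact ((Nat.prime_two.pow_dvd_iff_le_factorization hN0).1 h7).trans hvk
    have hae : a = k := le_antisymm hak (Nat.le_of_dvd (Nat.pos_of_ne_zero ha0) hka)
    refine common (by obtain ⟨j, hj⟩ := hm; exact ⟨j - 1, by omega⟩) hr hord hy hv hyS (fun _ _ _ => rfl)
      ((pCore 2 ↥(stb K v)).map (stb K v).subtype) ?_ ?_ ?_
    · rintro _ ⟨x, _, rfl⟩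
      exact x.2
    · rintro k' hk' _ ⟨x, hx, rfl⟩
      exact ⟨⟨k', hk'⟩ * x * ⟨k', hk'⟩⁻¹, (Cfsg.Agent.Lib.Cores.pCore_normal 2).conj_mem x hx ⟨k', hk'⟩, rfl⟩
    · rw [Subgroup.card_map_of_injective (stb K v).subtype_injective, ha, hae, hk]

end Cfsg.Agent.H100.D2
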