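import Cfsg.Agent.H100.D2.EvenEven
import Cfsg.Agent.H72.D2.Vs
import Cfsg.Agent.H50.D2.Stb
import Cfsg.Agent.H454.Rg.ComFin

/-!
# S3691, residual case F-D+2: 11.2 (c), final form (helper100)
-/

set_option autoImplicit false

namespace Cfsg.Agent.H386.Rg

open QuadraticMap Module Cfsg.Agent.H997.Rg

universe u v

variable {F : Type u} {V : Type v} [Field F] [Finite F] [AddCommGroup V] [Module F V] [FiniteDimensional F V]
  {Q : QuadraticForm F V} {p f m : ℕ} {K : Subgroup (V ≃ₗ[F] V)}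

/-- **(c)** -/
theorem D2.even_even (hJ : OutJ1.{v}) (h : D2 Q p f m K) (hp2 : p = 2) (hq : 8 ≤ p ^ f) (hm : Even m) : False :=
  Cfsg.Agent.H100.D2.even_even_of hJ h hp2 hq hm h.fixplane h.fixplane' (fun h7 => Cfsg.Agent.H50.D2.card_stb_dvd h h7)
    (fun h7 => Cfsg.Agent.H50.D2.card_stb_ge h h7)
    fun h1 {_} h2 h3 {_} h4 {_} h5 h6 h7 A h8 h9 h10 => h.common h1 h2 h3 h4 h5 h6 h7 A h8 h9 h10

end Cfsg.Agent.H386.Rg
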