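import Cfsg.Agent.H997.Rg.SyA
import Cfsg.Agent.Involutions.BaerSuzuki

/-!
# S3691, residual case F-D+2, (d) `even_odd`, piece (IV): the Suzuki component (helper100)
-/

set_option autoImplicit false

namespace Cfsg.Agent.H100.D2

open Module Subgroup
open Cfsg.Agent.H997.Rg

universe u v w

/-- the statement of (III) -/
def SuzSmall : Prop := ∀ {G : Type v} [Group G] [Finite G] (_ : IsQuasisimple G) {F : Type u} {W : Type w} [Field F] [Finite F]
    [CharP F 2] [AddCommGroup W] [Module F W] [FiniteDimensional F W] (σ : G →* Module.End F W)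
    (_ : Function.Injective σ) (_ : Fpf 2 σ) {y : G} (_ : ∀ U : Submodule F W, (∀ u ∈ U, σ y u ∈ U) → U = ⊥ ∨ U = ⊤)
    {b : ℕ} (_ : 2 ≤ b) (_ : Nat.card W = 2 ^ (4 * b))
    (_ : Nat.card (G ⧸ center G) = (2 ^ b) ^ 2 * ((2 ^ b) ^ 2 + 1) * (2 ^ b - 1))
    (S : Set (Module.End F W)) (_ : ∀ e ∈ S, ∀ g, e * σ g = σ g * e), Nat.card S ≤ 2 ^ b

theorem num_suz {f : ℕ} (hf : 3 ≤ f) : 4 * f * (2 ^ f + 1) < 2 ^ (3 * f) := by
  induction f, hf using Nat.le_induction with
  | base => norm_num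
  | succ f hf ih =>
    have h1 : 2 ^ (3 * (f + 1)) = 8 * 2 ^ (3 * f) := by ring
    have h2 : 4 * (f + 1) * (2 ^ (f + 1) + 1) ≤ 8 * (4 * f * (2 ^ f + 1)) := by
      have h3 : 4 * (f + 1) ≤ 4 * (2 * f) := by omega
      have h4 : 2 ^ (f + 1) + 1 ≤ 2 * (2 ^ f + 1) := by rw [pow_succ]; omega
      calc 4 * (f + 1) * (2 ^ (f + 1) + 1) ≤ 4 * (2 * f) * (2 * (2 ^ f + 1)) := Nat.mul_le_mul h3 h4
        _ = 4 * (4 * f * (2 ^ f + 1)) := by ring
        _ ≤ 8 * (4 * f * (2 ^ f + 1)) := Nat.mul_le_mul_right _ (by omega)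
    omega

section

variable {K : Type v} [Group K] [Finite K]

theorem two_bot (hA : pCore 2 K = ⊥) {L : Subgroup K} (hLn : L.Normal) (N : Subgroup ↥L) (hN : N.Normal)
    (h2 : IsPGroup 2 N) : N = ⊥ := by
  have h1 : N ≤ pCore 2 ↥L := le_sSup ⟨hN, h2⟩
  have h3 : (pCore 2 ↥L).map L.subtype ≤ pCore 2 K := by
    refine le_sSup ⟨?_, ?_⟩
    · have := Cfsg.Agent.Lib.Cores.pCore_characteristic (G := ↥L) 2
      infer_instance
    · exact (Cfsg.Agent.Lib.Cores.pCore_isPGroup 2).map _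
  rw [hA, le_bot_iff, Subgroup.map_eq_bot_iff_of_injective _ L.subtype_injective] at h3
  rw [h3, le_bot_iff] at h1
  exact h1

/-- elements of order 2 in `L` invert an element of odd prime order -/
theorem exists_inv_pair (hA : pCore 2 K = ⊥) {L : Subgroup K} (hLn : L.Normal) (he : 2 ∣ Nat.card L) :
    ∃ t u : ↥L, t * t = 1 ∧ (orderOf u).Prime ∧ orderOf u ≠ 2 ∧ t * u * t⁻¹ = u⁻¹ := by
  have := Fact.mk Nat.prime_two
  obtain ⟨t, ht⟩ := exists_prime_orderOf_dvd_card' (G := ↥L) 2 he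
  have htt : t * t = 1 := by rw [← pow_two, ← ht]; exact pow_orderOf_eq_one t
  have ht1 : t ≠ 1 := by
    rintro rfl
    rw [orderOf_one] at ht
    omega
  obtain ⟨u, hu1, hodd, hinv⟩ := Cfsg.Agent.Involutions.BaerSuzuki.exists_odd_inverted t htt fun hcon => ht1 (by
    have h1 := two_bot hA hLn _ Subgroup.normalClosure_normal hcon
    have h2 : t ∈ Subgroup.normalClosure ({t} : Set ↥L) := Subgroup.subset_normalClosure (by simp)
    rw [h1, Subgroup.mem_bot] at h2
    exact h2)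
  have hou : orderOf u ≠ 1 := fun h0 => hu1 (orderOf_eq_one_iff.1 h0)
  obtain ⟨s, hs, hsd⟩ := Nat.exists_prime_and_dvd hou
  have hpos : 0 < orderOf u := orderOf_pos u
  have hos : orderOf (u ^ (orderOf u / s)) = s := by
    rw [orderOf_pow_of_dvd (Nat.div_pos (Nat.le_of_dvd hpos hsd) hs.pos).ne' (Nat.div_dvd_of_dvd hsd),
      Nat.div_div_self hsd hpos.ne']
  refine ⟨t, u ^ (orderOf u / s), htt, by rw [hos]; exact hs, ?_, ?_⟩
  · rw [hos]
    rintro rfl
    exact (Nat.not_even_iff_odd.2 hodd) (even_iff_two_dvd.2 hsd)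
  · rw [← inv_pow, ← hinv, conj_pow]

end

variable {K : Type v} [Group K] [Finite K] {F : Type u} {V : Type w} [Field F] [Finite F] [AddCommGroup V] [Module F V]
    [FiniteDimensional F V] {f n r : ℕ} {B : LinearMap.BilinForm F V} {ρ : K →* Module.End F V} {y : K}

/-- a subgroup commuting with `P` acts on `fixW ρ P` -/
def resW (ρ : K →* Module.End F V) (P : Subgroup K) {L : Subgroup K} (hL : ∀ g ∈ L, ∀ a ∈ P, Commute g a) :
    ↥L →* Module.End F (fixW ρ P) where
  toFun g := (ρ g).restrict (p := fixW ρ P) (q := fixW ρ P) fun w hw a ha => by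
    rw [← Module.End.mul_apply, ← map_mul, ← (hL g g.2 a ha).eq, map_mul, Module.End.mul_apply, hw a ha]
  map_one' := by
    apply LinearMap.ext
    intro x
    apply Subtype.ext
    change ρ 1 (x : V) = x
    rw [map_one]; rfl
  map_mul' g k := by
    apply LinearMap.ext
    intro x
    apply Subtype.ext
    change ρ (g * k) (x : V) = ρ g (ρ k x)
    rw [map_mul]; rfl

theorem resW_apply (P : Subgroup K) {L : Subgroup K} (hL : ∀ g ∈ L, ∀ a ∈ P, Commute g a) (g : ↥L) (x : fixW ρ P) :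
    ((resW ρ P hL g x : fixW ρ P) : V) = ρ g x := rfl

/-- `|K|_2` is large -/
theorem low (h : Sy f n r B ρ y) : 2 ^ (f * n) ≤ 4 * f * (2 ^ f + 1) * 2 ^ (Nat.card K).factorization 2 := by
  obtain ⟨k, hk⟩ : ∃ k, k = f * n := ⟨_, rfl⟩
  have hk18 := h.fn18
  have h3 := h.dvd
  have h4 := h.ge
  rw [← hk] at h3 h4 hk18 ⊢
  have hk1 : 1 < 2 ^ k := Nat.one_lt_two_pow (by omega)
  have hN0 : Nat.card K ≠ 0 := Nat.card_pos.ne'
  have h6 : Nat.card K / 2 ^ (Nat.card K).factorization 2 ∣ 2 ^ k - 1 := by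
    have h7 : Nat.Coprime 2 (Nat.card K / 2 ^ (Nat.card K).factorization 2) := Nat.coprime_ordCompl Nat.prime_two hN0
    have h8 : Nat.card K / 2 ^ (Nat.card K).factorization 2 ∣ Nat.card K := Nat.ordCompl_dvd _ 2
    exact Nat.Coprime.dvd_of_dvd_mul_left (Nat.Coprime.pow_left k h7).symm (h8.trans h3)
  have h7 := Nat.le_of_dvd (by omega) h6
  have h8 : 2 ^ (Nat.card K).factorization 2 * (Nat.card K / 2 ^ (Nat.card K).factorization 2) = Nat.card K :=
    Nat.ordProj_mul_ordCompl_eq_self _ 2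
  have h9 : (2 ^ k - 1) * 2 ^ k ≤ (2 ^ k - 1) * (4 * f * (2 ^ f + 1) * 2 ^ (Nat.card K).factorization 2) := by
    calc (2 ^ k - 1) * 2 ^ k = 2 ^ k * (2 ^ k - 1) := mul_comm _ _
      _ ≤ 4 * f * (2 ^ f + 1) * Nat.card K := h4
      _ = 4 * f * (2 ^ f + 1) * (2 ^ (Nat.card K).factorization 2 * (Nat.card K / 2 ^ (Nat.card K).factorization 2)) := by
        rw [h8]
      _ ≤ 4 * f * (2 ^ f + 1) * (2 ^ (Nat.card K).factorization 2 * (2 ^ k - 1)) :=
        Nat.mul_le_mul_left _ (Nat.mul_le_mul_left _ h7)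
      _ = _ := by ring
  exact Nat.le_of_mul_le_mul_left h9 (by omega)

/-- **the Suzuki component**, from `Sy.par`, `Sy.emb` (SyB) and `suz_small` -/
theorem suz_bot_of (h : Sy f n r B ρ y)
    (hpar : ∀ {P : Subgroup K}, IsPGroup 2 P → P ≠ ⊥ → (∀ a ∈ P, y * a * y⁻¹ ∈ P) → ∀ {t : K}, (∀ a ∈ P, t * a * t⁻¹ ∈ P) →
      t * t ∈ P → ∀ {u : K}, (∀ a ∈ P, u * a * u⁻¹ ∈ P) → (∀ w ∈ fixW ρ P, ρ u w = w → w = 0) →
      (∀ w ∈ fixW ρ P, ρ t (ρ u w) = ρ u⁻¹ (ρ t w)) → 4 ∣ n)
    (hemb : ∀ {P : Subgroup K}, IsPGroup 2 P → P ≠ ⊥ → (∀ a ∈ P, y * a * y⁻¹ ∈ P) → ∀ {L : Subgroup K}, y ∈ L →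
      (∀ g ∈ L, ∀ a ∈ P, Commute g a) → ∃ S : Set (Module.End F (fixW ρ P)), Nat.card S = Nat.card P ∧
        ∀ e ∈ S, ∀ g ∈ L, ∀ w w' : fixW ρ P, (w' : V) = ρ g w → ((e w' : fixW ρ P) : V) = ρ g (e w : fixW ρ P))
    (hsmall : SuzSmall.{u, v, w}) (hA : pCore 2 K = ⊥) {L : Subgroup K} (hL : IsComponent L)
    (hLn : L.Normal) (hyL : y ∈ L) {b : ℕ} (hbo : Odd b) (hb : 4 * b = f * n)
    (hcard : Nat.card (↥L ⧸ center ↥L) = (2 ^ b) ^ 2 * ((2 ^ b) ^ 2 + 1) * (2 ^ b - 1))
    (hd : (Nat.card K).factorization 2 ≤ (Nat.card (centralizer (L : Set K))).factorization 2 + 2 * b) : False := by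
  have := Fact.mk Nat.prime_two
  have hch := h.charP
  have hfV : Finite V := Module.finite_of_finite F
  have hf3 := h.f3
  have hn6 := h.n6
  have hb5 : 5 ≤ b := by
    have := h.fn18
    omega
  obtain ⟨P0⟩ : Nonempty (Sylow 2 ↥(centralizer (L : Set K))) := Sylow.nonempty
  obtain ⟨P, hPdef⟩ : ∃ P : Subgroup K, P = (P0 : Subgroup ↥(centralizer (L : Set K))).map (centralizer (L : Set K)).subtype :=
    ⟨_, rfl⟩
  have hP : IsPGroup 2 P := by
    rw [hPdef]
    exact P0.2.map _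
  have hPc : Nat.card P = 2 ^ (Nat.card (centralizer (L : Set K))).factorization 2 := by
    rw [hPdef, Nat.card_congr ((P0 : Subgroup ↥(centralizer (L : Set K))).equivMapOfInjective _
      (centralizer (L : Set K)).subtype_injective).toEquiv.symm]
    exact P0.card_eq_multiplicity
  have hcom : ∀ g ∈ L, ∀ a ∈ P, Commute g a := by
    intro g hg a ha
    rw [hPdef] at ha
    obtain ⟨⟨a, haC⟩, -, rfl⟩ := ha
    exact mem_centralizer_iff.1 haC g hg
  have hconj : ∀ g ∈ L, ∀ a ∈ P, g * a * g⁻¹ ∈ P := by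
    intro g hg a ha
    rw [(hcom g hg a ha).eq, mul_inv_cancel_right]
    exact ha
  -- the numbers
  have hlow := low h
  have hl2 : 2 ^ (2 * b) ≤ 4 * f * (2 ^ f + 1) * Nat.card P := by
    have h1 : 2 ^ (2 * b) * 2 ^ (2 * b) ≤ 4 * f * (2 ^ f + 1) * Nat.card P * 2 ^ (2 * b) := by
      calc 2 ^ (2 * b) * 2 ^ (2 * b) = 2 ^ (f * n) := by rw [← hb, ← pow_add]; congr 1; ring
        _ ≤ 4 * f * (2 ^ f + 1) * 2 ^ (Nat.card K).factorization 2 := hlow
        _ ≤ 4 * f * (2 ^ f + 1) * 2 ^ ((Nat.card (centralizer (L : Set K))).factorization 2 + 2 * b) :=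
          Nat.mul_le_mul_left _ (Nat.pow_le_pow_right two_pos hd)
        _ = _ := by rw [hPc, pow_add]; ring
    exact Nat.le_of_mul_le_mul_right h1 (by positivity)
  have hnum := num_suz hf3
  have hP1 : P ≠ ⊥ := by
    rintro rfl
    rw [Subgroup.card_bot, mul_one] at hl2
    have h1 : 2 ^ (3 * f) ≤ 2 ^ (2 * b) := by
      apply Nat.pow_le_pow_right two_pos
      have h2 : f * 6 ≤ f * n := Nat.mul_le_mul_left _ hn6
      omega
    omega
  -- `4 ∣ n`
  have hev : 2 ∣ Nat.card L := by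
    have h1 : Nat.card (↥L ⧸ center ↥L) ∣ Nat.card L := Subgroup.card_quotient_dvd_card _
    refine Dvd.dvd.trans ?_ h1
    rw [hcard]
    refine Dvd.dvd.mul_right (Dvd.dvd.mul_right ?_ _) _
    exact dvd_pow (dvd_pow_self 2 (by omega)) two_ne_zero
  obtain ⟨t, u, htt, hu, hu2, htu⟩ := exists_inv_pair hA hLn hev
  have hou : orderOf (u : K) = orderOf u := Subgroup.orderOf_coe u
  have h4 : 4 ∣ n := by
    refine hpar hP hP1 (hconj y hyL) (t := t) (hconj t t.2) ?_ (u := u) (hconj u u.2) ?_ ?_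
    · have h1 : (t : K) * t = 1 := congrArg Subtype.val htt
      rw [h1]
      exact P.one_mem
    · intro w _ hw
      exact h.fpf u (by rw [hou]; exact hu) (by rw [hou]; exact hu2) w hw
    · intro w _
      have h1 : (t : K) * u = (u : K)⁻¹ * t := by
        have h2 : (t : K) * u * (t : K)⁻¹ = (u : K)⁻¹ := congrArg Subtype.val htu
        rw [← h2, inv_mul_cancel_right]
      rw [← Module.End.mul_apply, ← Module.End.mul_apply, ← map_mul, ← map_mul, h1]
  -- `|P| ≤ 2 ^ b`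
  obtain ⟨S, hS, hSc⟩ := hemb hP hP1 (hconj y hyL) hyL hcom
  have hPb : Nat.card P ≤ 2 ^ b := by
    rw [← hS]
    refine hsmall hL.2 (resW ρ P hcom) ?_ ?_ (y := ⟨y, hyL⟩) ?_ (by omega) ?_ hcard S ?_
    · rw [← MonoidHom.ker_eq_bot_iff]
      refine two_bot hA hLn _ inferInstance ?_
      have hcp : ∀ {d : ℕ}, d.Prime → d ∣ Nat.card (resW ρ P hcom).ker → d = 2 := by
        intro d hdp hdd
        by_contra hd2
        have := Fact.mk hdp
        obtain ⟨⟨g, hg⟩, hgo⟩ := exists_prime_orderOf_dvd_card' (G := (resW ρ P hcom).ker) d hdd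
        rw [Subgroup.orderOf_mk] at hgo
        have hgK : orderOf (g : K) = d := by rw [Subgroup.orderOf_coe]; exact hgo
        obtain ⟨w, hw⟩ : ∃ w : fixW ρ P, w ≠ 0 := by
          have hnt : Nontrivial (fixW ρ P) := by
            apply Module.nontrivial_of_finrank_pos (R := F)
            rw [(h.w_spec hP hP1 (hconj y hyL)).1]
            omega
          exact exists_ne 0
        apply hw
        apply Subtype.ext
        refine h.fpf g (by rw [hgK]; exact hdp) (by rw [hgK]; exact hd2) w ?_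
        have h1 : resW ρ P hcom g w = w := by
          rw [MonoidHom.mem_ker] at hg
          rw [hg]; rfl
        exact congrArg Subtype.val h1
      exact IsPGroup.of_card (Nat.eq_prime_pow_of_unique_prime_dvd Nat.card_pos.ne' hcp)
    · intro g hg hg2 w hw
      apply Subtype.ext
      exact h.fpf g (by rw [Subgroup.orderOf_coe]; exact hg) (by rw [Subgroup.orderOf_coe]; exact hg2) w
        (congrArg Subtype.val hw)
    · intro U hU
      by_cases hU0 : U = ⊥
      · exact Or.inl hU0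
      · right
        have h1 : U.map (fixW ρ P).subtype = fixW ρ P := by
          refine h.irrW hP hP1 (hconj y hyL) _ ?_ ?_ (Submodule.map_subtype_le _ _)
          · rintro _ ⟨x, hx, rfl⟩
            exact ⟨_, hU x hx, rfl⟩
          · intro hcon
            apply hU0
            rw [eq_bot_iff]
            intro x hx
            have h2 : (fixW ρ P).subtype x ∈ U.map (fixW ρ P).subtype := ⟨x, hx, rfl⟩
            rw [hcon] at h2
            exact Subtype.ext h2
        rw [eq_top_iff]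
        intro x _
        have h2 : (x : V) ∈ U.map (fixW ρ P).subtype := by rw [h1]; exact x.2
        obtain ⟨z, hz, hzx⟩ := h2
        have h3 : z = x := Subtype.ext hzx
        rw [← h3]
        exact hz
    · rw [h.cardW hP hP1 (hconj y hyL), hb]
    · intro e he g
      apply LinearMap.ext
      intro x
      apply Subtype.ext
      exact hSc e he g g.2 x _ rfl
  -- the end
  obtain ⟨c, hc⟩ := h4
  have hbc : b = f * c := by
    have h1 : 4 * b = 4 * (f * c) := by rw [hb, hc]; ring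
    omega
  have hc3 : 3 ≤ c := by
    have hco : Odd c := (Nat.odd_mul.1 (hbc ▸ hbo)).2
    obtain ⟨j, hj⟩ := hco
    omega
  have h5 : 2 ^ b * 2 ^ b ≤ 4 * f * (2 ^ f + 1) * 2 ^ b := by
    calc 2 ^ b * 2 ^ b = 2 ^ (2 * b) := by rw [← pow_add]; congr 1; ring
      _ ≤ 4 * f * (2 ^ f + 1) * Nat.card P := hl2
      _ ≤ 4 * f * (2 ^ f + 1) * 2 ^ b := Nat.mul_le_mul_left _ hPb
  have h6 := Nat.le_of_mul_le_mul_right h5 (by positivity)
  have h7 : 2 ^ (3 * f) ≤ 2 ^ b := by
    apply Nat.pow_le_pow_right two_pos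
    rw [hbc, mul_comm 3 f]
    exact Nat.mul_le_mul_left _ hc3
  omega

end Cfsg.Agent.H100.D2
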