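import Cfsg.Agent.H997.Rg.Sy
import Cfsg.Agent.H100.D2.Fin
import Cfsg.Agent.H383.D2.Free

/-!
# S3691, residual case F-D+2, (d) `even_odd`, piece (I): the abstract frame `Sy` on `v^⊥ / v` (helper100)

* `formW` : the polar form on `v^⊥ / v`;
* `inv_rank` : involutions have rank `m - 1` on `v^⊥ / v`;
* `exists_sy`.
-/

set_option autoImplicit false

namespace Cfsg.Agent.H100.D2

open QuadraticMap Module Subgroup
open Cfsg.Agent.H386.Rg Cfsg.Agent.H997.Rg
open Cfsg.Agent.LieClassical.OrthCore (polar_self')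

universe u v

section

variable {F : Type u} {V : Type v} [Field F] [AddCommGroup V] [Module F V] {Q : QuadraticForm F V} {v : V}

/-- the polar form on `v^⊥` -/
def formP (Q : QuadraticForm F V) (v : V) : Pv Q v →ₗ[F] Pv Q v →ₗ[F] F :=
  (polarBilin Q).compl₁₂ (Pv Q v).subtype (Pv Q v).subtype

theorem formP_apply (x y : Pv Q v) : formP Q v x y = polar Q (x : V) y := rfl

theorem formP_left (x : Pv Q v) (hx : x ∈ Nv Q v) : formP Q v x = 0 := by
  ext y
  obtain ⟨c, hc⟩ := Submodule.mem_span_singleton.1 (mem_Nv.1 hx)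
  rw [formP_apply, ← hc, polar_smul_left, mem_Pv.1 y.2, smul_zero]
  rfl

/-- one half of the polar form on `v^⊥ / v` -/
def formH (Q : QuadraticForm F V) (v : V) : (Pv Q v ⧸ Nv Q v) →ₗ[F] Pv Q v →ₗ[F] F :=
  (Nv Q v).liftQ (formP Q v) fun x hx => formP_left x hx

theorem formH_mk (x y : Pv Q v) : formH Q v (Submodule.Quotient.mk x) y = polar Q (x : V) y := rfl

theorem formH_right (y : Pv Q v) (hy : y ∈ Nv Q v) : (formH Q v).flip y = 0 := by
  ext x
  obtain ⟨c, hc⟩ := Submodule.mem_span_singleton.1 (mem_Nv.1 hy)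
  change formH Q v (Submodule.Quotient.mk x) y = 0
  rw [formH_mk, ← hc, polar_smul_right, polar_comm, mem_Pv.1 x.2, smul_zero]

/-- the polar form on `v^⊥ / v` -/
def formW (Q : QuadraticForm F V) (v : V) : LinearMap.BilinForm F (Pv Q v ⧸ Nv Q v) :=
  ((Nv Q v).liftQ (formH Q v).flip fun y hy => formH_right y hy).flip

theorem formW_mk (x y : Pv Q v) : formW Q v (Submodule.Quotient.mk x) (Submodule.Quotient.mk y) = polar Q (x : V) y := rfl

theorem finrank_Nv [FiniteDimensional F V] (h2 : (2 : F) = 0) (hv0 : v ≠ 0) : finrank F (Nv Q v) = 1 := by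
  have hvP : v ∈ Pv Q v := by rw [mem_Pv, polar_self', h2, zero_mul]
  have h1 : Nv Q v = Submodule.span F {(⟨v, hvP⟩ : Pv Q v)} := by
    ext x
    rw [mem_Nv, Submodule.mem_span_singleton, Submodule.mem_span_singleton]
    constructor
    · rintro ⟨c, hc⟩
      exact ⟨c, Subtype.ext hc⟩
    · rintro ⟨c, hc⟩
      exact ⟨c, congrArg Subtype.val hc⟩
  rw [h1]
  exact finrank_span_singleton fun h0 => hv0 (congrArg Subtype.val h0)

theorem finrank_Pv [FiniteDimensional F V] (hnd : ∀ v : V, (∀ w, polar Q v w = 0) → v = 0) (hv0 : v ≠ 0) :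
    finrank F (Pv Q v) + 1 = finrank F V := by
  have h1 := LinearMap.finrank_range_add_finrank_ker (polarBilin Q v)
  have h2 : finrank F (LinearMap.range (polarBilin Q v)) = 1 := by
    have h3 : LinearMap.range (polarBilin Q v) = ⊤ := by
      obtain ⟨w, hw⟩ : ∃ w, polar Q v w ≠ 0 := by
        by_contra hc
        push Not at hc
        exact hv0 (hnd v hc)
      rw [LinearMap.range_eq_top]
      intro c
      refine ⟨(c / polar Q v w) • w, ?_⟩
      change polar Q v _ = _
      rw [polar_smul_right, smul_eq_mul, div_mul_cancel₀ _ hw]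
    rw [h3, finrank_top, finrank_self]
  change _ + finrank F (Pv Q v) = _ at h1
  omega

theorem finrank_W [FiniteDimensional F V] (h2 : (2 : F) = 0) (hnd : ∀ v : V, (∀ w, polar Q v w = 0) → v = 0)
    (hv0 : v ≠ 0) : finrank F (Pv Q v ⧸ Nv Q v) + 2 = finrank F V := by
  have h3 := Submodule.finrank_quotient_add_finrank (Nv Q v)
  rw [finrank_Nv h2 hv0] at h3
  have h4 := finrank_Pv (Q := Q) hnd hv0
  omega

end

section

variable {F : Type u} {V : Type v} [Field F] [Finite F] [AddCommGroup V] [Module F V] [FiniteDimensional F V]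
  {Q : QuadraticForm F V} {p f m : ℕ} {K : Subgroup (V ≃ₗ[F] V)} {v : V}

/-- involutions have rank `m - 1` on `v^⊥ / v` -/
theorem inv_rank (h : D2 Q p f m K) (hp2 : p = 2) (hm : Odd m) (hv : Q v ≠ 0) (t : ↥(stb K v)) (htt : t * t = 1)
    (ht1 : t ≠ 1) : finrank F (LinearMap.ker (repW h.iso v t - 1 : Module.End F (Pv Q v ⧸ Nv Q v))) = m - 1 := by
  have h2 : (2 : F) = 0 := two_eq_zero h.hF h.hp hp2
  have hch : CharP F 2 := CharTwo.of_one_ne_zero_of_two_eq_zero one_ne_zero h2
  have h5 := h.hm
  obtain ⟨t, htK, htv⟩ := t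
  have htt' : t * t = 1 := congrArg Subtype.val htt
  have ht1' : t ≠ 1 := fun h0 => ht1 (Subtype.ext h0)
  have hv0 : v ≠ 0 := by
    rintro rfl
    exact hv (QuadraticMap.map_zero Q)
  have hsing : ∀ x, Q (t x - x) = 0 := by
    intro x
    have h3 := polar_D h2 (h.iso t htK) htt' x
    rw [Dt_apply] at h3
    rw [← h3, sub_eq_add_neg, polar_add_right, polar_neg_right, polar_self', h2, zero_mul, neg_zero, add_zero]
    by_contra h4
    exact Cfsg.Agent.H383.D2.no_ctype h hm htK htt' h4
  -- the dimension of the range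
  set R : Submodule F V := LinearMap.range ((t : V →ₗ[F] V) - LinearMap.id) with hR
  set C : Submodule F V := LinearMap.ker ((t : V →ₗ[F] V) - LinearMap.id) with hC
  have hmemC : ∀ x, x ∈ C ↔ t x = x := by
    intro x
    rw [hC, LinearMap.mem_ker, LinearMap.sub_apply, sub_eq_zero]
    rfl
  have hRC : R ≤ C := by
    rintro _ ⟨x, rfl⟩
    rw [hmemC]
    have h6 : t (t x) = x := LinearEquiv.congr_fun htt' x
    change t (t x - x) = t x - x
    rw [map_sub, h6]
    have h7 : (2 : F) • (t x - x) = 0 := by rw [h2, zero_smul]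
    rw [two_smul] at h7
    have h8 : x - t x = -(t x - x) := by abel
    rw [h8]
    exact neg_eq_of_add_eq_zero_left h7
  have hdim := LinearMap.finrank_range_add_finrank_ker ((t : V →ₗ[F] V) - LinearMap.id)
  rw [← hR, ← hC, h.dim] at hdim
  have hle := Submodule.finrank_mono hRC
  have hev := h.even t htK
  rw [← hR] at hev
  have hge := h.rank_ge htK ht1'
  rw [← hR] at hge
  have hRm : finrank F R = m - 1 := by
    obtain ⟨a, ha⟩ := hm
    obtain ⟨b, hb⟩ := hev
    omega
  have hCm : finrank F C = m + 1 := by omega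
  -- `C ⊄ v^⊥`
  have hCv : ¬ C ≤ Pv Q v := by
    intro hcon
    have hnd : (polarBilin Q).Nondegenerate :=
      ⟨fun x hx => h.nd x hx, fun x hx => h.nd x fun w => by rw [polar_comm]; exact hx w⟩
    have hort : R = LinearMap.BilinForm.orthogonal (polarBilin Q) C := by
      apply Submodule.eq_of_le_of_finrank_eq
      · rintro _ ⟨x, rfl⟩
        rw [LinearMap.BilinForm.mem_orthogonal_iff]
        intro n hn
        change polar Q n (Dt t x) = 0
        rw [← self_adj h2 (h.iso t htK) htt', Dt_apply, (hmemC n).1 hn, sub_self, polar_zero_left]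
      · rw [LinearMap.BilinForm.finrank_orthogonal hnd, h.dim, hRm, hCm]
        omega
    have hvR : v ∈ R := by
      rw [hort]
      intro x hx
      change polar Q x v = 0
      rw [polar_comm]
      exact hcon hx
    obtain ⟨x, hx⟩ := hvR
    apply hv
    rw [← hx]
    exact hsing x
  -- the kernel
  have hker : finrank F (LinearMap.ker (repW h.iso v ⟨t, htK, htv⟩ - 1 : Module.End F (Pv Q v ⧸ Nv Q v))) + 1 =
      finrank F (Pv Q v ⊓ C : Submodule F V) := by
    have e1 : LinearMap.ker (repW h.iso v ⟨t, htK, htv⟩ - 1 : Module.End F (Pv Q v ⧸ Nv Q v)) =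
        LinearMap.range ((Nv Q v).mkQ.domRestrict (C.comap (Pv Q v).subtype)) := by
      ext x
      rw [LinearMap.mem_ker, LinearMap.sub_apply, sub_eq_zero, LinearMap.mem_range]
      constructor
      · intro hx
        obtain ⟨x, rfl⟩ := Submodule.Quotient.mk_surjective _ x
        refine ⟨⟨x, ?_⟩, rfl⟩
        rw [Submodule.mem_comap, hmemC]
        rw [repW_mk] at hx
        have hx' := (Submodule.Quotient.eq _).1 hx
        rw [mem_Nv] at hx'
        obtain ⟨c, hc⟩ := Submodule.mem_span_singleton.1 hx'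
        change c • v = t (x : V) - x at hc
        have h6 := hsing x
        rw [← hc, QuadraticMap.map_smul] at h6
        have h7 : c * c = 0 := by
          rcases mul_eq_zero.1 (show c * c * Q v = 0 from h6) with h8 | h8
          · exact h8
          · exact absurd h8 hv
        rw [mul_self_eq_zero.1 h7, zero_smul] at hc
        exact sub_eq_zero.1 hc.symm
      · rintro ⟨⟨y, hy⟩, rfl⟩
        rw [Submodule.mem_comap, hmemC] at hy
        change repW h.iso v ⟨t, htK, htv⟩ (Submodule.Quotient.mk y) = Submodule.Quotient.mk y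
        rw [repW_mk]
        exact congrArg _ (Subtype.ext hy)
    have e2 := LinearMap.finrank_range_add_finrank_ker ((Nv Q v).mkQ.domRestrict (C.comap (Pv Q v).subtype))
    have e3 : LinearMap.ker ((Nv Q v).mkQ.domRestrict (C.comap (Pv Q v).subtype)) =
        (Nv Q v).comap (C.comap (Pv Q v).subtype).subtype := by
      rw [LinearMap.ker_domRestrict, Submodule.ker_mkQ]
    have e4 : Nv Q v ≤ C.comap (Pv Q v).subtype := by
      intro x hx
      obtain ⟨c, hc⟩ := Submodule.mem_span_singleton.1 (mem_Nv.1 hx)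
      rw [Submodule.mem_comap, hmemC, Submodule.subtype_apply, ← hc, map_smul, htv]
    rw [e3, (Submodule.comapSubtypeEquivOfLe e4).finrank_eq, finrank_Nv h2 hv0, ← e1] at e2
    rw [e2, ← Submodule.map_comap_subtype, LinearEquiv.finrank_eq (Submodule.equivMapOfInjective _ (Pv Q v).injective_subtype _)]
  have hdimC : finrank F (Pv Q v ⊓ C : Submodule F V) + 1 = finrank F C := by
    have e2 := LinearMap.finrank_range_add_finrank_ker ((polarBilin Q v).domRestrict C)
    have e3 : LinearMap.ker ((polarBilin Q v).domRestrict C) = (Pv Q v).comap C.subtype := by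
      rw [LinearMap.ker_domRestrict]; rfl
    have e4 : LinearMap.range ((polarBilin Q v).domRestrict C) = ⊤ := by
      obtain ⟨w, hw, hwv⟩ := SetLike.not_le_iff_exists.1 hCv
      rw [mem_Pv] at hwv
      rw [LinearMap.range_eq_top]
      intro c
      refine ⟨(c / polar Q v w) • ⟨w, hw⟩, ?_⟩
      change polar Q v ((c / polar Q v w) • w) = _
      rw [polar_smul_right, smul_eq_mul, div_mul_cancel₀ _ hwv]
    rw [e3, e4, finrank_top, finrank_self,
      LinearEquiv.finrank_eq (Submodule.equivMapOfInjective _ C.injective_subtype ((Pv Q v).comap C.subtype)),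
      Submodule.map_comap_subtype, inf_comm] at e2
    omega
  omega

/-- **(I)** -/
theorem exists_sy (h : D2 Q p f m K) (hp2 : p = 2) (hq : 8 ≤ p ^ f) (hm : Odd m) (hm7 : 7 ≤ m) :
    ∃ (r : ℕ) (v : V) (_ : Q v ≠ 0) (y : ↥(stb K v)) (_ : Finite ↥(stb K v))
      (B : LinearMap.BilinForm F (Pv Q v ⧸ Nv Q v)), Sy f (m - 1) r B (repW h.iso v) y := by
  subst hp2
  have h2 : (2 : F) = 0 := two_eq_zero h.hF h.hp rfl
  have hch : CharP F 2 := CharTwo.of_one_ne_zero_of_two_eq_zero one_ne_zero h2
  have hf3 : 3 ≤ f := by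
    by_contra hcon
    have : 2 ^ f ≤ 2 ^ 2 := Nat.pow_le_pow_right two_pos (by omega)
    omega
  have hk15 : 18 ≤ f * (m - 1) := by
    calc 18 = 3 * 6 := rfl
      _ ≤ f * (m - 1) := Nat.mul_le_mul hf3 (by omega)
  obtain ⟨r, hr, hord⟩ := Cfsg.Agent.Lib.Zsigmondy.exists_prime_orderOf (a := 2) (n := f * (m - 1)) le_rfl
    (by omega) (by omega) (by omega)
  have hfV : Finite V := Module.finite_of_finite F
  have hVV : Finite (V ≃ₗ[F] V) :=
    Finite.of_injective (fun f : V ≃ₗ[F] V => (f : V → V)) DFunLike.coe_injective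
  have := Fact.mk hr
  obtain ⟨⟨y, hyK⟩, hy⟩ := exists_prime_orderOf_dvd_card' (G := K) r (h.rdvd r hr (Or.inr hord))
  rw [Subgroup.orderOf_mk] at hy
  obtain ⟨e, g, hee, hgg, heg, hfix⟩ := h.fixplane hr hord hyK hy
  obtain ⟨v, hv'⟩ : ∃ v, v = e + g := ⟨_, rfl⟩
  have hv : Q v ≠ 0 := by
    have h6 : Q (e + g) = Q e + Q g + polar Q e g := by unfold polar; abel
    rw [hv', h6, hee, hgg, heg, zero_add, zero_add]
    exact one_ne_zero
  have hyv : y v = v := by
    rw [hfix, hv']
    exact Submodule.add_mem _ (Submodule.subset_span (by simp)) (Submodule.subset_span (by simp))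
  have hv0 : v ≠ 0 := by
    rintro rfl
    exact hv (QuadraticMap.map_zero Q)
  obtain ⟨w0, hw0⟩ := Cfsg.Agent.H383.D2.exists_w0 h.nd hv0
  have hno : ∀ t ∈ K, t * t = 1 → ∀ x, polar Q x (t x) = 0 := by
    intro t ht htt x
    by_contra h4
    exact Cfsg.Agent.H383.D2.no_ctype h hm ht htt h4
  have hyS : y ∈ stb K v := ⟨hyK, hyv⟩
  refine ⟨r, v, hv, ⟨y, hyS⟩, inferInstance, formW Q v, ?_⟩
  have hd := finrank_W (Q := Q) h2 h.nd hv0
  rw [h.dim] at hd
  exact
    { hF := h.hF
      f3 := hf3
      n6 := by omega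
      ne := by
        obtain ⟨a, ha⟩ := hm
        exact ⟨a, by omega⟩
      dim := by omega
      alt := by
        intro x
        obtain ⟨x, rfl⟩ := Submodule.Quotient.mk_surjective _ x
        rw [formW_mk, polar_self', h2, zero_mul]
      nd := by
        intro x hx
        obtain ⟨x, rfl⟩ := Submodule.Quotient.mk_surjective _ x
        rw [Submodule.Quotient.mk_eq_zero, mem_Nv]
        rw [Cfsg.Agent.H383.D2.perp_perp h.nd hw0 (x := (x : V)) fun z hz => hx (Submodule.Quotient.mk ⟨z, mem_Pv.2 hz⟩)]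
        exact Submodule.smul_mem _ _ (Submodule.mem_span_singleton_self v)
      iso := by
        intro k x z
        obtain ⟨x, rfl⟩ := Submodule.Quotient.mk_surjective _ x
        obtain ⟨z, rfl⟩ := Submodule.Quotient.mk_surjective _ z
        rw [repW_mk, repW_mk, formW_mk, formW_mk]
        exact Cfsg.Agent.H383.D2.pol_map h k.2.1 _ _
      inj := by
        rw [injective_iff_map_eq_one]
        intro k hk
        apply Subtype.ext
        refine Cfsg.Agent.H383.D2.faithful h hm hv k.2.1 k.2.2 fun x hx => ?_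
        have h6 : repW h.iso v k (Submodule.Quotient.mk ⟨x, mem_Pv.2 hx⟩) = Submodule.Quotient.mk ⟨x, mem_Pv.2 hx⟩ := by
          rw [hk]; rfl
        rw [repW_mk, Submodule.Quotient.eq, mem_Nv] at h6
        obtain ⟨c, hc⟩ := Submodule.mem_span_singleton.1 h6
        refine ⟨c, ?_⟩
        change c • v = (k : V ≃ₗ[F] V) x - x at hc
        rw [hc]
        abel
      fpf := repW_fpf h2 h.iso hv fun k hk hkp hk2 => h.fixplane' hv hk hkp hk2 hk2
      inv := fun t htt ht1 => inv_rank h rfl hm hv t htt ht1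
      typ := by
        intro t htt x
        obtain ⟨x, rfl⟩ := Submodule.Quotient.mk_surjective _ x
        rw [repW_mk, formW_mk]
        exact hno _ t.2.1 (congrArg Subtype.val htt) _
      four := by
        intro t ht4 x
        obtain ⟨x, rfl⟩ := Submodule.Quotient.mk_surjective _ x
        have h4 : ∀ z, (t : V ≃ₗ[F] V) ((t : V ≃ₗ[F] V) ((t : V ≃ₗ[F] V) ((t : V ≃ₗ[F] V) z))) = z := fun z =>
          LinearEquiv.congr_fun (congrArg Subtype.val ht4) z
        have p1 : formW Q v (Submodule.Quotient.mk x) (repW h.iso v t (repW h.iso v t (Submodule.Quotient.mk x))) = 0 := by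
          rw [repW_mk, repW_mk, formW_mk]
          exact hno ((t : V ≃ₗ[F] V) * t) (K.mul_mem t.2.1 t.2.1) (congrArg Subtype.val ht4) _
        have p2 : formW Q v (Submodule.Quotient.mk x) (repW h.iso v t (repW h.iso v t (repW h.iso v t
            (Submodule.Quotient.mk x)))) = formW Q v (Submodule.Quotient.mk x) (repW h.iso v t (Submodule.Quotient.mk x)) := by
          rw [repW_mk, repW_mk, repW_mk, formW_mk, formW_mk]
          rw [← Cfsg.Agent.H383.D2.pol_map h t.2.1, polar_comm]
          exact congrArg (fun z => polar Q z ((t : V ≃ₗ[F] V) x)) (h4 x)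
        have p3 : formW Q v (Submodule.Quotient.mk x) (Submodule.Quotient.mk x) = 0 := by
          rw [formW_mk, polar_self', h2, zero_mul]
        rw [pow_succ, pow_succ, pow_one]
        simp only [Module.End.mul_apply, LinearMap.sub_apply, Module.End.one_apply, map_sub, p1, p2, p3]
        linear_combination (2 * formW Q v (Submodule.Quotient.mk x) (repW h.iso v t (Submodule.Quotient.mk x))) * h2
      hr := hr
      ord := hord
      hy := by rw [Subgroup.orderOf_mk]; exact hy
      dvd := Cfsg.Agent.H50.D2.card_stb_dvd h hv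
      ge := by
        have h6 := Cfsg.Agent.H50.D2.card_stb_ge h hv
        rw [if_pos rfl] at h6
        refine h6.trans_eq ?_
        ring }

end

end Cfsg.Agent.H100.D2
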